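/- Tower C6P: one class of involutions in subgroups of `SL₃(q)` (job INV3) and homologies of order
seven (job T3). -/
import Cfsg.Agent.H53.C6Kit
import Cfsg.Agent.H17.TransferInv
import Cfsg.Agent.H57.SLGen

set_option autoImplicit false

namespace H31.C6
open Matrix Cfsg.Geo H25 H53.C6 Subgroup

universe u
variable {F : Type u} [Field F]

theorem tr_inv {z : Matrix (Fin 3) (Fin 3) F} (zz : z * z = 1) (ad : z.adjugate = z) (z1 : z ≠ 1) :
    z 0 0 + z 1 1 + z 2 2 + 1 = 0 := by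
  rw [adjugate_fin_three] at ad
  by_contra ht
  apply z1
  ext i j
  apply mul_left_cancel₀ ht
  have a := fun i j => congrFun (congrFun ad i) j
  have s := congrFun (congrFun zz i) j
  have a00 := a 0 0; have a11 := a 1 1; have a22 := a 2 2
  have aij := a i j
  fin_cases i <;> fin_cases j <;> simp [mul_apply, Fin.sum_univ_three] at a00 a11 a22 aij s ⊢ <;> grind

set_option maxHeartbeats 800000 in
theorem minor {z : Matrix (Fin 3) (Fin 3) F} (ad : z.adjugate = z)
    (t : z 0 0 + z 1 1 + z 2 2 + 1 = 0) (i j k l : Fin 3) :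
    (1 + z) i j * (1 + z) k l = (1 + z) i l * (1 + z) k j := by
  rw [adjugate_fin_three] at ad
  have a := fun i j => congrFun (congrFun ad i) j
  have a00 := a 0 0; have a01 := a 0 1; have a02 := a 0 2
  have a10 := a 1 0; have a11 := a 1 1; have a12 := a 1 2
  have a20 := a 2 0; have a21 := a 2 1; have a22 := a 2 2
  simp at a00 a01 a02 a10 a11 a12 a20 a21 a22
  clear a ad
  fin_cases i <;> fin_cases j <;> fin_cases k <;> fin_cases l <;> simp <;> grind

/-- An involution of `SL₃` fixes exactly a line. -/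
theorem fix_line (h2 : (2 : F) ≠ 0) {z : Matrix (Fin 3) (Fin 3) F} (zz : z * z = 1)
    (hd : z.det = 1) (z1 : z ≠ 1) :
    ∃ v : Fin 3 → F, v ≠ 0 ∧ z *ᵥ v = v ∧ ∀ y, z *ᵥ y = y → ∃ c : F, y = c • v := by
  have ad : z.adjugate = z := by
    have := mul_adjugate z
    rw [hd, one_smul] at this
    rw [← one_mul z.adjugate, ← zz, mul_assoc, this, mul_one]
  have t := tr_inv zz ad z1
  have mn := minor ad t
  obtain ⟨i, hi⟩ : ∃ i, (1 + z) i i ≠ 0 := by
    by_contra! h
    have h0 := h 0; have h1 := h 1; have h3 := h 2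
    simp at h0 h1 h3
    exact h2 (by linear_combination h0 + h1 + h3 - t)
  refine ⟨(1 + z) *ᵥ Pi.single i 1, fun e => hi (by simpa using congrFun e i), ?_, fun y hy => ?_⟩
  · rw [mulVec_mulVec, mul_add, zz, mul_one, add_comm]
  · refine ⟨y i / (1 + z) i i, funext fun k => ?_⟩
    have e : (1 + z) *ᵥ y = (2 : F) • y := by rw [add_mulVec, one_mulVec, hy, two_smul]
    have e1 := congrFun e k
    have e2 := congrFun e i
    simp only [mulVec, dotProduct, Fin.sum_univ_three, Pi.smul_apply, smul_eq_mul] at e1 e2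
    simp only [mulVec_single_one, Pi.smul_apply, smul_eq_mul, col_apply]
    field_simp
    apply mul_left_cancel₀ h2
    linear_combination (1 + z) k i * e2 - (1 + z) i i * e1 + y 0 * mn k 0 i i + y 1 * mn k 1 i i +
      y 2 * mn k 2 i i

theorem eq_of_fix (h2 : (2 : F) ≠ 0) {z w : Matrix (Fin 3) (Fin 3) F} (zz : z * z = 1)
    (ww : w * w = 1) (hd : w.det = 1) (w1 : w ≠ 1) (c : w * z = z * w) {v : Fin 3 → F} (v0 : v ≠ 0)
    (hz : z *ᵥ v = v) (hl : ∀ y, z *ᵥ y = y → ∃ c : F, y = c • v) (hw : w *ᵥ v = v) : w = z := by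
  obtain ⟨v', -, -, hl'⟩ := fix_line h2 ww hd w1
  obtain ⟨c₀, e₀⟩ := hl' v hw
  have c0 : c₀ ≠ 0 := by rintro rfl; exact v0 (by simpa using e₀)
  have neg : ∀ y, z *ᵥ y = -y → w *ᵥ y = -y := fun y hy => by
    obtain ⟨a, e⟩ := hl' (y + w *ᵥ y) (by rw [mulVec_add, mulVec_mulVec, ww, one_mulVec, add_comm])
    have e1 : z *ᵥ (y + w *ᵥ y) = y + w *ᵥ y := by
      rw [e, show v' = c₀⁻¹ • v by rw [e₀, inv_smul_smul₀ c0], mulVec_smul, mulVec_smul, hz]
    rw [mulVec_add, mulVec_mulVec, ← c, ← mulVec_mulVec, hy, mulVec_neg] at e1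
    have : (2 : F) • (y + w *ᵥ y) = 0 := by rw [two_smul]; nth_rw 1 [← e1]; abel
    exact eq_neg_of_add_eq_zero_right ((smul_eq_zero.1 this).resolve_left h2)
  refine (mulVec_injective.eq_iff).1 (funext fun y => smul_right_injective _ h2 ?_)
  obtain ⟨a, e⟩ := hl (y + z *ᵥ y) (by rw [mulVec_add, mulVec_mulVec, zz, one_mulVec, add_comm])
  have e1 : w *ᵥ (y + z *ᵥ y) = y + z *ᵥ y := by rw [e, mulVec_smul, hw]
  have e2 := neg (y - z *ᵥ y) (by rw [mulVec_sub, mulVec_mulVec, zz, one_mulVec, neg_sub])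
  rw [mulVec_add] at e1
  rw [mulVec_sub] at e2
  change (2 : F) • w *ᵥ y = (2 : F) • z *ᵥ y
  rw [two_smul, two_smul]
  linear_combination e1 + e2

theorem jobINV3 : JobINV3.{u} := by
  intro F _ _ H h2 hS hI
  have sq : ∀ {u : H}, orderOf u = 2 → u * u = 1 ∧ u ≠ 1 := fun h =>
    ⟨by rw [← pow_two, ← h, pow_orderOf_eq_one], by rintro rfl; simp at h⟩
  have mat : ∀ {u : H}, orderOf u = 2 → u.1.val * u.1.val = 1 ∧ u.1.val.det = 1 ∧ u.1.val ≠ 1 :=
    fun {u} h => ⟨congrArg (fun g : H => g.1.val) (sq h).1, mem_specialLinear.1 (hS u.2),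
      fun e => (sq h).2 (Subtype.ext (Units.ext e))⟩
  suffices key : ∀ a : H, orderOf a = 2 → ∃ z : H, ∀ u : H, orderOf u = 2 → IsConj u z by
    intro a ha b hb oa ob
    obtain ⟨z, hz⟩ := key ⟨a, ha⟩ (by rw [← oa, ← orderOf_coe])
    obtain ⟨g, hg⟩ := isConj_iff.1 ((hz ⟨a, ha⟩ (by rw [← oa, ← orderOf_coe])).trans
      (hz ⟨b, hb⟩ (by rw [← ob, ← orderOf_coe])).symm)
    exact ⟨g, g.2, congrArg Subtype.val hg⟩
  intro a oa
  obtain ⟨S⟩ : Nonempty (Sylow 2 H) := inferInstance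
  have : Nontrivial S := (nontrivial_iff_ne_bot _).2
    (S.ne_bot_of_dvd_card (oa ▸ orderOf_dvd_natCard a))
  have := S.isPGroup'.center_nontrivial
  obtain ⟨z, oz⟩ := exists_prime_orderOf_dvd_card' (G := center S) 2
    ((S.isPGroup'.to_subgroup _).card_eq_or_dvd.resolve_left Finite.one_lt_card.ne')
  have oz' : orderOf (z.1.1 : H) = 2 := by rw [orderOf_coe, orderOf_coe, oz]
  have cz : ∀ s : S, s.1.1.val * z.1.1.1.val = z.1.1.1.val * s.1.1.val := fun s =>
    congrArg (fun g : S => g.1.1.val) (mem_center_iff.1 z.2 s)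
  obtain ⟨zz, dz, z1⟩ := mat oz'
  obtain ⟨v, v0, hz, hl⟩ := fix_line h2 zz dz z1
  choose c hc using fun s : S => hl (s.1.1.val *ᵥ v) (by rw [mulVec_mulVec, ← cz, ← mulVec_mulVec, hz])
  let χ₀ : S →* F :=
    { toFun := c
      map_one' := smul_left_injective F v0 (by simpa using (hc 1).symm)
      map_mul' := fun s t => smul_left_injective F v0 (by
        change c _ • v = (c s * c t) • v
        rw [← hc, mul_comm, mul_smul, ← hc, ← mulVec_smul, ← hc, mulVec_mulVec]; rfl) }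
  let χ := χ₀.toHomUnits.rangeRestrict
  refine ⟨z.1.1, fun w ow => by_contra fun hn => ?_⟩
  have k1 : ∀ (g : H) (h : g⁻¹ * w * g ∈ (S : Subgroup H)), c ⟨_, h⟩ = -1 := fun g h => by
    have o : orderOf (g⁻¹ * w * g) = 2 := by rw [← ow, ← H17.orderOf_conj' g⁻¹ w, inv_inv]
    obtain ⟨ww, dw, w1⟩ := mat o
    have : χ₀ ⟨_, h⟩ * χ₀ ⟨_, h⟩ = 1 := by
      rw [← map_mul, ← map_one χ₀]; exact congrArg _ (Subtype.ext (sq o).1)
    refine (mul_self_eq_one_iff.1 this).resolve_left fun e => hn (isConj_iff.2 ⟨g⁻¹, ?_⟩)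
    rw [inv_inv]
    exact Subtype.ext (Units.ext (eq_of_fix h2 zz ww dw w1 (cz ⟨_, h⟩) v0 hz hl
      ((hc ⟨_, h⟩).trans (by rw [show c ⟨_, h⟩ = 1 from e, one_smul]))))
  have hw2 : IsPGroup 2 (zpowers w) := IsPGroup.of_card (n := 1) (by rw [Nat.card_zpowers, ow, pow_one])
  have ho : Odd (MulAction.fixedPoints (zpowers w) (H ⧸ (S : Subgroup H))).ncard := by
    have := hw2.card_modEq_card_fixedPoints (H ⧸ (S : Subgroup H))
    rw [← index_eq_card, Nat.card_coe_set_eq] at this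
    have h3 := S.not_dvd_index
    rw [Nat.odd_iff]; unfold Nat.ModEq at this; omega
  obtain ⟨q, hq⟩ := Set.nonempty_of_ncard_ne_zero ho.pos.ne'
  obtain ⟨g₀, rfl⟩ := QuotientGroup.mk_surjective q
  have hg₀ := (H17.smul_quotient_eq_iff w g₀).1 (hq ⟨w, mem_zpowers w⟩)
  have tr := H17.transfer_involution χ w (sq ow).1 (χ ⟨_, hg₀⟩)
    (MulAction.fixedPoints (zpowers w) (H ⧸ (S : Subgroup H))) (fun q hq => hq ⟨w, mem_zpowers w⟩)
    (fun g h _ => Subtype.ext (Units.ext ((k1 g h).trans (k1 g₀ hg₀).symm)))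
    (fun g h hg => absurd (fun x => smul_eq_self_of_mem_zpowers x.2
      ((H17.smul_quotient_eq_iff w g).2 h)) hg)
  have n1 : MonoidHom.transfer χ w ≠ 1 := fun e => by
    have := congrArg (fun x : χ₀.toHomUnits.range => (x.1 : F)) (tr.symm.trans e)
    simp only [SubgroupClass.coe_pow, Units.val_pow_eq_pow_val] at this
    change c ⟨_, hg₀⟩ ^ _ = 1 at this
    rw [k1, ho.neg_one_pow] at this
    exact h2 (by linear_combination -this)
  set V := MonoidHom.transfer χ
  have p2 : IsPGroup 2 V.range :=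
    (S.isPGroup'.of_surjective χ (MonoidHom.rangeRestrict_surjective _)).to_subgroup _
  obtain ⟨k, hk⟩ := p2.exists_card_eq
  obtain ⟨k, rfl⟩ : ∃ j, k = j + 1 := ⟨k - 1, by
    rcases k with _ | k
    · exact absurd (mem_bot.1 (card_eq_one.1 hk ▸ (⟨w, rfl⟩ : V w ∈ V.range))) n1
    · rfl⟩
  obtain ⟨L, hL⟩ := Sylow.exists_subgroup_card_pow_prime (G := V.range) 2 (n := k)
    (hk ▸ pow_dvd_pow 2 k.le_succ)
  refine hI (L.comap V.rangeRestrict) ?_
  rw [index_comap_of_surjective _ V.rangeRestrict_surjective]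
  have := L.card_mul_index
  rw [hL, hk, pow_succ] at this
  exact Nat.eq_of_mul_eq_mul_left (by positivity) this

/-! ### Homologies of order seven -/

section has
variable {ι : Type} [Fintype ι] [DecidableEq ι] {H : Subgroup (GL ι F)}

/-- The matrix `M` belongs to `H`. -/
def Has (H : Subgroup (GL ι F)) (M : Matrix ι ι F) : Prop := ∃ g ∈ H, g.val = M

theorem Has.mul {M N : Matrix ι ι F} (h : Has H M) (h' : Has H N) : Has H (M * N) := by
  obtain ⟨g, hg, rfl⟩ := h
  obtain ⟨k, hk, rfl⟩ := h'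
  exact ⟨g * k, mul_mem hg hk, rfl⟩

theorem Has.inv {M N : Matrix ι ι F} (h : Has H M) (e : M * N = 1) : Has H N := by
  obtain ⟨g, hg, rfl⟩ := h
  exact ⟨g⁻¹, inv_mem hg, Units.inv_eq_of_mul_eq_one_right e⟩

theorem Has.of_eq {M N : Matrix ι ι F} (h : Has H M) (e : M = N) : Has H N := e ▸ h

theorem has_all [Finite F] {ω : F} (gen : ∀ K : Subfield F, ω ∈ K → K = ⊤) {i j : ι} (hij : i ≠ j)
    (hω : ∀ t, Has H (transvection i j t) → Has H (transvection i j (ω * t))) {c : F} (c0 : c ≠ 0)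
    (hc : Has H (transvection i j c)) (t : F) : Has H (transvection i j t) := by
  let R : Subring F :=
    { carrier := {l | ∀ t, Has H (transvection i j t) → Has H (transvection i j (l * t))}
      mul_mem' := fun ha hb t ht => by rw [mul_assoc]; exact ha _ (hb t ht)
      one_mem' := fun t ht => by rwa [one_mul]
      add_mem' := fun ha hb t ht => ((ha t ht).mul (hb t ht)).of_eq (by
        rw [transvection_mul_transvection_same _ _ hij, add_mul])
      zero_mem' := fun t _ => ⟨1, one_mem _, by simp⟩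
      neg_mem' := fun ha t ht => (ha t ht).inv (by
        rw [transvection_mul_transvection_same _ _ hij]; simp) }
  let K : Subfield F :=
    { R with
      inv_mem' := fun x hx => by
        by_cases x0 : x = 0
        · rw [x0, _root_.inv_zero]; exact R.zero_mem
        · have := Fintype.ofFinite F
          have h1 := FiniteField.pow_card_sub_one_eq_one x x0
          have h2 := Fintype.one_lt_card (α := F)
          rw [show Fintype.card F - 1 = Fintype.card F - 2 + 1 by omega, pow_succ] at h1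
          rw [← eq_inv_of_mul_eq_one_left h1]
          exact R.pow_mem hx _ }
  have : t / c ∈ K := by rw [gen K hω]; trivial
  simpa [c0] using this c hc

theorem big_of_has (h : ∀ i j, i ≠ j → ∀ t, Has H (transvection i j t)) : specialLinear ι F ≤ H := by
  intro g hg
  obtain ⟨k, hk, e⟩ := H57.sl_transvection_induction (fun A => Has H A.1) ⟨1, one_mem _, rfl⟩
    (fun i j hij c => h i j hij c) (fun _ _ => Has.mul) ⟨g.val, mem_specialLinear.1 hg⟩
  exact (Units.ext e : k = g) ▸ hk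

end has

theorem tv01 (t : F) : transvection (0 : Fin 3) 1 t = !![1, t, 0; 0, 1, 0; 0, 0, 1] := by
  ext i j; fin_cases i <;> fin_cases j <;> simp [transvection]
theorem tv02 (t : F) : transvection (0 : Fin 3) 2 t = !![1, 0, t; 0, 1, 0; 0, 0, 1] := by
  ext i j; fin_cases i <;> fin_cases j <;> simp [transvection]
theorem tv10 (t : F) : transvection (1 : Fin 3) 0 t = !![1, 0, 0; t, 1, 0; 0, 0, 1] := by
  ext i j; fin_cases i <;> fin_cases j <;> simp [transvection]
theorem tv12 (t : F) : transvection (1 : Fin 3) 2 t = !![1, 0, 0; 0, 1, t; 0, 0, 1] := by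
  ext i j; fin_cases i <;> fin_cases j <;> simp [transvection]
theorem tv20 (t : F) : transvection (2 : Fin 3) 0 t = !![1, 0, 0; 0, 1, 0; t, 0, 1] := by
  ext i j; fin_cases i <;> fin_cases j <;> simp [transvection]
theorem tv21 (t : F) : transvection (2 : Fin 3) 1 t = !![1, 0, 0; 0, 1, 0; 0, t, 1] := by
  ext i j; fin_cases i <;> fin_cases j <;> simp [transvection]

theorem has_comm {ι : Type} [Fintype ι] [DecidableEq ι] {H : Subgroup (GL ι F)} {i k j : ι}
    (hij : i ≠ j) (hik : i ≠ k) (hkj : k ≠ j) (h1 : ∀ t, Has H (transvection i k t))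
    (h2 : ∀ t, Has H (transvection k j t)) (t : F) : Has H (transvection i j t) :=
  ((((h1 t).mul (h2 1)).mul (h1 (-t))).mul (h2 (-1))).of_eq (by
    have := congrArg Subtype.val (H57.sl_commutator_transvection hij hik hkj t 1)
    rwa [commutatorElement_def, SpecialLinearGroup.transvection_inv,
      SpecialLinearGroup.transvection_inv, mul_one] at this)

theorem alg7 {ω a b c : F} (ws : ω ^ 6 + ω ^ 5 + ω ^ 4 + ω ^ 3 + ω ^ 2 + ω + 1 = 0)
    (ha : a = ω - ω ^ 6) (hb : b = ω ^ 2 - ω ^ 5) (hc : c = ω ^ 3 - ω ^ 4) :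
    a * a + b * b + c * c = -7 ∧ a * b - b * c - c * a = 0 ∧ (7 + a * a = 0 → (7 : F) * 13 = 0) := by
  subst ha hb hc
  refine ⟨by linear_combination (7 - 7 * ω + ω ^ 2 - ω ^ 3 + ω ^ 4 - ω ^ 5 + ω ^ 6) * ws,
    by linear_combination (ω ^ 3 - 2 * ω ^ 4 + ω ^ 5) * ws, fun e => ?_⟩
  have w7 : ω ^ 7 = 1 := by linear_combination (ω - 1) * ws
  have e1 : ω ^ 2 + ω ^ 5 + 5 = 0 := by linear_combination e + (2 - ω ^ 5) * w7
  linear_combination ((ω ^ 2 + ω ^ 5) ^ 2 - 4 * (ω ^ 2 + ω ^ 5) + 18) * e1 - ws -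
    (ω ^ 8 + 3 * ω ^ 5 + ω ^ 3 + 3 * ω ^ 2 + ω + 2) * w7

theorem conjA {ω a b c : F} (h7 : (7 : F) ≠ 0) (e1 : a * a + b * b + c * c = -7)
    (e2 : a * b - b * c - c * a = 0) :
    !![a, b, c; b, -c, -a; c, -a, b] * ((-7 : F)⁻¹ • !![a, b, c; b, -c, -a; c, -a, b]) = 1 ∧
    !![a, b, c; b, -c, -a; c, -a, b] * !![ω, 0, 0; 0, 1, 0; 0, 0, 1] *
      ((-7 : F)⁻¹ • !![a, b, c; b, -c, -a; c, -a, b]) * !![1, 0; 0, b; 0, c] =
      !![1, 0; 0, b; 0, c] * !![1 - (ω - 1) * (a * a) / 7, (ω - 1) * (7 + a * a) * a / 7;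
        -((ω - 1) * a / 7), 1 + (ω - 1) * (7 + a * a) / 7] := by
  constructor <;> ext i j <;> fin_cases i <;> fin_cases j <;> simp [mul_apply, Fin.sum_univ_succ] <;>
    field_simp <;> grind

set_option maxHeartbeats 800000 in
theorem jobT3 : JobT3.{u} := by
  intro dk F _ _ ω H hω gen nsq h13 hD hm' hA
  have w7 : ω ^ 7 = 1 := hω.pow_eq_one
  have wn : ∀ m, 1 ≤ m → m ≤ 6 → ω ^ m ≠ 1 := fun m h1 h2 =>
    hω.pow_ne_one_of_pos_of_lt (by omega) (by omega)
  have w1 : ω - 1 ≠ 0 := sub_ne_zero.2 (by simpa using wn 1 le_rfl (by norm_num))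
  have w0 : ω ≠ 0 := hω.ne_zero (by norm_num)
  have ws : ω ^ 6 + ω ^ 5 + ω ^ 4 + ω ^ 3 + ω ^ 2 + ω + 1 = 0 :=
    mul_left_cancel₀ w1 (by linear_combination w7)
  have h7 : (7 : F) ≠ 0 := by exact_mod_cast (hω.neZero' (n := 7)).out
  have hρ : Has H !![ω, 0, 0; 0, 1, 0; 0, 0, 1] := by simpa [Has] using hD 1 0 0
  have hρ' : Has H !![ω ^ 6, 0, 0; 0, 1, 0; 0, 0, 1] := by simpa [Has] using hD 6 0 0
  obtain ⟨a, ha⟩ : ∃ a, a = ω - ω ^ 6 := ⟨_, rfl⟩
  obtain ⟨b, hb⟩ : ∃ b, b = ω ^ 2 - ω ^ 5 := ⟨_, rfl⟩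
  obtain ⟨c, hc⟩ : ∃ c, c = ω ^ 3 - ω ^ 4 := ⟨_, rfl⟩
  have hA' : Has H !![a, b, c; b, -c, -a; c, -a, b] := by simpa [Has, ha, hb, hc] using hA
  obtain ⟨e1, e2, e3⟩ := alg7 ws ha hb hc
  have a0 : a ≠ 0 := fun e => wn 5 (by norm_num) (by norm_num)
    (mul_left_cancel₀ w0 (by linear_combination ha - e))
  have a1 : 7 + a * a ≠ 0 := fun e => mul_ne_zero h7 h13 (e3 e)
  have hAi : Has H ((-7 : F)⁻¹ • !![a, b, c; b, -c, -a; c, -a, b]) := hA'.inv (conjA (ω := ω) h7 e1 e2).1
  obtain ⟨g, hg, eg⟩ := (hA'.mul hρ).mul hAi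
  obtain ⟨ρ, hρH, eρ⟩ := id hρ
  let δ : GL (Fin 2) F := GeneralLinearGroup.mkOfDetNeZero !![ω, 0; 0, 1] (by simpa using w0)
  let M : GL (Fin 2) F := GeneralLinearGroup.mkOfDetNeZero
    !![1 - (ω - 1) * (a * a) / 7, (ω - 1) * (7 + a * a) * a / 7;
      -((ω - 1) * a / 7), 1 + (ω - 1) * (7 + a * a) / 7] (by
      rw [det_fin_two_of]; convert w0 using 1; field_simp; ring)
  have hδ : δ ∈ sec H !![1, 0; 0, b; 0, c] := ⟨ρ, hρH, by
    rw [eρ]; ext i j
    fin_cases i <;> fin_cases j <;> simp [δ, mul_apply, Fin.sum_univ_succ]⟩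
  have hM : M ∈ sec H !![1, 0; 0, b; 0, c] := ⟨g, hg, eg ▸ (conjA h7 e1 e2).2⟩
  obtain ⟨c', c0, _, ⟨u, hu, eu⟩, eu'⟩ := dk F _ ω 1 δ M δ nsq hδ rfl
    (by simpa using wn 2 (by norm_num) (by norm_num)) hM
    (by simp [M, w1, a0, a1, h7]) (by simp [M, w1, a0, h7])
    (by
      by_contra! h
      simp only [M, GeneralLinearGroup.val_mkOfDetNeZero, of_apply, cons_val', cons_val_zero,
        cons_val_one, cons_val_fin_one] at h
      have h1 := h.1
      have h2 := h.2
      field_simp at h1 h2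
      have : (7 : F) * (ω + 1) = 0 := by linear_combination h1 + h2
      exact wn 2 (by norm_num) (by norm_num) (by
        linear_combination (ω - 1) * (mul_eq_zero.1 this).resolve_left h7)) hδ
    (fun m m1 m5 hm => by
      obtain ⟨s, hs⟩ := (mem_scalars_iff _).1 hm
      have : (δ ^ m).val = !![ω ^ m, 0; 0, 1] := by
        rw [Units.val_pow_eq_pow_val, show δ.val = diagonal ![ω, 1] by
          ext i j; fin_cases i <;> fin_cases j <;> simp [δ], diagonal_pow]
        ext i j; fin_cases i <;> fin_cases j <;> simp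
      rw [this] at hs
      have h1 := congrFun (congrFun hs 0) 0
      have h2 := congrFun (congrFun hs 1) 1
      simp at h1 h2
      exact wn m m1 (by omega) (h1.trans h2.symm))
  rw [eu'] at eu
  have eu2 := fun i j => congrFun (congrFun eu i) j
  obtain ⟨φ, φ0, φ1, hφ⟩ := row_of_fix (κ := 1) (i := 0) (ζ := Units.mk0 ω w0) hu
    (by
      rw [one_mul, show hm 0 (Units.mk0 ω w0) = ρ from Units.ext (by
        rw [eρ, hm_val]; ext i j; fin_cases i <;> fin_cases j <;> simp [vecMulVec_apply])]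
      exact hρH) (Commute.one_left _) (Commute.one_left _)
    (fun e => w1 (sub_eq_zero.2 (congrArg Units.val e)))
    (by ext i; have := eu2 i 0; fin_cases i <;> simpa [mul_apply, Fin.sum_univ_succ] using this)
    (v := ![0, b, c])
    (by have := eu2 0 1
        simp [mul_apply, Fin.sum_univ_succ] at this
        simpa [mulVec, dotProduct, Fin.sum_univ_succ, this] using c0)
  have hφ' : Has H !![1, φ 1, φ 2; 0, 1, 0; 0, 0, 1] := Has.of_eq hφ (by
    ext i j; fin_cases i <;> fin_cases j <;> simp [vecMulVec_apply, φ0])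
  have w7' : ω * ω ^ 6 = 1 := by linear_combination w7
  have hm2 : Has H !![0, 1, 0; 0, 0, -1; -1, 0, 0] := Has.inv hm' (by simp [one_fin_three])
  have rot := fun M (h : Has H M) => (Has.mul hm' h).mul hm2
  refine big_of_has ?_
  by_cases p0 : φ 1 = 0
  · have q0 : φ 2 ≠ 0 := fun q0 => φ1 (by ext i; fin_cases i <;> simp [φ0, p0, q0])
    have t02 := has_all gen (i := 0) (j := 2) (by decide)
      (fun t ht => ((hρ.mul ht).mul hρ').of_eq (by simp [tv02, w7'])) q0
      (hφ'.of_eq (by rw [tv02, p0]))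
    have t10 : ∀ t, Has H (transvection 1 0 t) := fun t => (rot _ (t02 (-t))).of_eq (by simp [tv02, tv10])
    have t21 : ∀ t, Has H (transvection 2 1 t) := fun t => (rot _ (t10 (-t))).of_eq (by simp [tv21, tv10])
    intro i j hij
    fin_cases i <;> fin_cases j <;> (try contradiction)
    exacts [has_comm (by decide) (by decide) (by decide) t02 t21, t02, t10,
      has_comm (by decide) (by decide) (by decide) t10 t02,
      has_comm (by decide) (by decide) (by decide) t21 t10, t21]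
  · have d1 : Has H !![1, 0, 0; 0, ω ^ 6, 0; 0, 0, 1] := by simpa [Has] using hD 0 6 0
    have d2 : Has H !![1, 0, 0; 0, ω, 0; 0, 0, 1] := by simpa [Has] using hD 0 1 0
    have hφi : Has H !![1, -φ 1, -φ 2; 0, 1, 0; 0, 0, 1] := hφ'.inv (by simp [one_fin_three])
    have t01 := has_all gen (i := 0) (j := 1) (by decide)
      (fun t ht => ((hρ.mul ht).mul hρ').of_eq (by simp [tv01, w7'])) (mul_ne_zero w1 p0)
      ((((d1.mul hφ').mul d2).mul hφi).of_eq (by simp [tv01, mul_comm _ ω, w7']; ring))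
    have t12 : ∀ t, Has H (transvection 1 2 t) := fun t => (rot _ (t01 (-t))).of_eq (by simp [tv01, tv12])
    have t20 : ∀ t, Has H (transvection 2 0 t) := fun t => (rot _ (t12 t)).of_eq (by simp [tv20, tv12])
    intro i j hij
    fin_cases i <;> fin_cases j <;> (try contradiction)
    exacts [t01, has_comm (by decide) (by decide) (by decide) t01 t12,
      has_comm (by decide) (by decide) (by decide) t12 t20, t12, t20,
      has_comm (by decide) (by decide) (by decide) t20 t01]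

end H31.C6
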