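/- Tower C6P: an overgroup containing a reflection `hm 0 (-1)` contains `SL` (job SGN). -/
import Cfsg.Agent.H53.C6Spec

set_option autoImplicit false

namespace H31.C6
open Matrix Cfsg.Geo H25 H53.C6 Subgroup Polynomial

universe u

section quat
variable {K : Type} [Field K]

/-- Pure quaternions in the basis `I, J, I J`. -/
def qX (n a c : K) (v : Fin 3 → K) : Matrix (Fin 2) (Fin 2) K :=
  !![v 1 * a - v 2 * n * c, n * (-v 0 + v 1 * c + v 2 * a);
    v 0 + v 1 * c + v 2 * a, -(v 1 * a) + v 2 * n * c]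

theorem qX_inj {n a c : K} (h2 : (2 : K) ≠ 0) (hn : n ≠ 0) (e : a ^ 2 + n * c ^ 2 = -n)
    {v w : Fin 3 → K} (h : qX n a c v = qX n a c w) : v = w := by
  have h0 := congrFun (congrFun h 0) 0
  have h1 := congrFun (congrFun h 0) 1
  have h3 := congrFun (congrFun h 1) 0
  simp [qX, hn] at h0 h1 h3
  have e0 : v 0 = w 0 := mul_left_cancel₀ h2 (by linear_combination h3 - h1)
  have e1 : v 1 = w 1 := mul_left_cancel₀ hn (by
    linear_combination -a * h0 - n * c * h3 + n * c * e0 + (v 1 - w 1) * e)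
  have e2 : v 2 = w 2 := mul_left_cancel₀ hn (by
    linear_combination c * h0 - a * h3 + a * e0 + (v 2 - w 2) * e)
  ext i; fin_cases i <;> assumption

theorem noncomm {n a c : K} (h2 : (2 : K) ≠ 0) (hn : n ≠ 0) (e : a ^ 2 + n * c ^ 2 = -n)
    {Y J : Matrix (Fin 2) (Fin 2) K}
    (ey : Y = !![-n * (1 + c + a), -n * (-a + n * c); a - n * c, n * (-1 + c + a)])
    (eJ : J = !![a, n * c; c, -a]) :
    J * (Y * Y) * ((-n)⁻¹ • J) * (Y * Y) ≠ Y * Y * (J * (Y * Y) * ((-n)⁻¹ • J)) := fun h => by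
  have e1 : Y * Y = !![-n ^ 3 + 2 * n ^ 2 * (c + a), -2 * n ^ 2 * (a - n * c);
      -2 * n * (a - n * c), -n ^ 3 - 2 * n ^ 2 * (c + a)] := by
    rw [ey]; simp; refine ⟨⟨?_, ?_⟩, ?_, ?_⟩ <;> grind
  have e2 : J * (Y * Y) * ((-n)⁻¹ • J) = !![-n ^ 3 - 2 * n ^ 2 * (c - a), 2 * n ^ 2 * (a + n * c);
      2 * n * (a + n * c), -n ^ 3 + 2 * n ^ 2 * (c - a)] := by
    rw [e1, eJ]; simp; refine ⟨⟨?_, ?_⟩, ?_, ?_⟩ <;> field_simp <;> grind
  rw [e2, e1] at h
  have e3 := congrFun (congrFun h 1) 0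
  simp at e3
  have : (2 : K) ^ 4 * n ^ 4 = 0 := by grind
  exact mul_ne_zero (pow_ne_zero 4 h2) (pow_ne_zero 4 hn) this

theorem hU_aux {n a c : K} (hr : n + 2 ≠ 0) (e : a ^ 2 + n * c ^ 2 = -n) (v : Fin 3 → K) :
    !![a - n * c, n * (-1 + c + a); 1 + c + a, -a + n * c] * qX n a c v =
      qX n a c (fun i => -v i + 2 * (v 0 + v 1 + n * v 2) / (n + 2)) *
        !![a - n * c, n * (-1 + c + a); 1 + c + a, -a + n * c] := by
  simp [qX]; refine ⟨⟨?_, ?_⟩, ?_, ?_⟩ <;> field_simp <;> grind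

theorem h_aux {n a c : K} (h5 : (5 : K) ≠ 0) (hn : n ≠ 0) (e : a ^ 2 + n * c ^ 2 = -n) :
    !![(3 - 4 * c) / 5, 4 * a / 5; 4 * a / (5 * n), (3 + 4 * c) / 5] * qX n a c ![1, 0, 0] =
      qX n a c ![-7 / 25, 24 / 25, 0] *
        !![(3 - 4 * c) / 5, 4 * a / 5; 4 * a / (5 * n), (3 + 4 * c) / 5] ∧
    !![(3 - 4 * c) / 5, 4 * a / 5; 4 * a / (5 * n), (3 + 4 * c) / 5] * qX n a c ![0, 1, 0] =
      qX n a c ![-24 / 25, -7 / 25, 0] *
        !![(3 - 4 * c) / 5, 4 * a / 5; 4 * a / (5 * n), (3 + 4 * c) / 5] := by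
  have h25 : (25 : K) ≠ 0 := by convert mul_ne_zero h5 h5 using 1; norm_num
  constructor <;> simp [qX] <;> refine ⟨⟨?_, ?_⟩, ?_, ?_⟩ <;> field_simp <;> grind

theorem quat [Finite K] (dks : JobDKs) (hp : (Nat.card K).Prime) {n : K} (h2 : (2 : K) ≠ 0)
    (h5 : (5 : K) ≠ 0) (hn : n ≠ 0) (hr : n + 2 ≠ 0) (h4 : n - 2 ≠ 0) (h19 : n ^ 2 - 8 * n - 4 ≠ 0)
    (T : Submonoid (Function.End (Fin 3 → K))) (t0 : (fun v => ![v 0, -v 1, -v 2]) ∈ T)
    (t1 : (fun v => ![-v 0, v 1, -v 2]) ∈ T)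
    (t2 : (fun v i => -v i + 2 * (v 0 + v 1 + n * v 2) / (n + 2)) ∈ T) :
    ∃ t ∈ T, t ![1, 0, 0] = ![-7 / 25, 24 / 25, 0] ∧ t ![0, 1, 0] = ![-24 / 25, -7 / 25, 0] := by
  obtain ⟨a, c, e, ac⟩ : ∃ a c : K, a ^ 2 + n * c ^ 2 = -n ∧ a - n * c ≠ 0 := by
    have := Fintype.ofFinite K
    obtain ⟨a, c, e⟩ := FiniteField.exists_root_sum_quadratic (R := K) (f := X ^ 2)
      (g := C n * X ^ 2 + C n) (by simp) (by compute_degree!)
      (FiniteField.odd_card_of_char_ne_two fun h => h2 (by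
        have := ringChar.Nat.cast_ringChar (R := K)
        rw [h] at this; exact_mod_cast this))
    simp only [eval_pow, eval_X, eval_add, eval_mul, eval_C] at e
    by_cases h : a - n * c = 0
    · refine ⟨a, -c, by linear_combination e, fun h' => ?_⟩
      have a0 : a = 0 := mul_left_cancel₀ h2 (by linear_combination h + h')
      have c0 : c = 0 := mul_left_cancel₀ hn (by linear_combination a0 - h)
      exact hn (by simpa [a0, c0] using e)
    · exact ⟨a, c, by linear_combination e, h⟩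
  let S : Submonoid (GL (Fin 2) K) :=
    { carrier := {h | ∃ t ∈ T, ∀ v, h.val * qX n a c v = qX n a c (t v) * h.val}
      one_mem' := ⟨1, one_mem _, fun v => by simp [Function.End.one_def]⟩
      mul_mem' := by
        rintro g h ⟨s, hs, e1⟩ ⟨t, ht, e2⟩
        exact ⟨s * t, mul_mem hs ht, fun v => by
          rw [Units.val_mul, mul_assoc, e2, ← mul_assoc, e1, mul_assoc]; rfl⟩ }
  let H : Subgroup (GL (Fin 2) K) :=
    { S with
      inv_mem' := fun {h} hh => Submonoid.powers_le.2 hh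
        ((isOfFinOrder_of_finite h).mem_powers_iff_mem_zpowers.2 (inv_mem (mem_zpowers h))) }
  let I : GL (Fin 2) K := GeneralLinearGroup.mkOfDetNeZero !![0, -n; 1, 0] (by simpa using hn)
  let J : GL (Fin 2) K := GeneralLinearGroup.mkOfDetNeZero !![a, n * c; c, -a] (by
    rw [det_fin_two_of]; convert hn using 1; linear_combination -e)
  let U : GL (Fin 2) K := GeneralLinearGroup.mkOfDetNeZero (qX n a c ![1, 1, 1]) (by
    rw [qX, det_fin_two_of]; convert mul_ne_zero hn hr using 1; simp; linear_combination (-1 - n) * e)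
  have eI : I.val = !![0, -n; 1, 0] := rfl
  have eJ : J.val = !![a, n * c; c, -a] := rfl
  have eU : U.val = !![a - n * c, n * (-1 + c + a); 1 + c + a, -a + n * c] := by
    change qX n a c ![1, 1, 1] = _; simp [qX]
  have hI : I ∈ H := ⟨_, t0, fun v => by
    rw [eI]; simp [qX]; refine ⟨⟨?_, ?_⟩, ?_, ?_⟩ <;> ring⟩
  have hJ : J ∈ H := ⟨_, t1, fun v => by
    rw [eJ]; simp [qX]; refine ⟨⟨?_, ?_⟩, ?_, ?_⟩ <;> ring⟩
  have hU : U ∈ H := ⟨_, t2, fun v => eU ▸ hU_aux hr e v⟩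
  have ey : (I * U).val = !![-n * (1 + c + a), -n * (-a + n * c); a - n * c, n * (-1 + c + a)] := by
    rw [Units.val_mul, eI, eU]; simp
  have hS := dks K H I J (I * U) J hp h2 (fun s hs => by
      obtain ⟨x, hx⟩ := (mem_scalars_iff _).1 hs
      exact ⟨1, one_mem _, fun v => by rw [hx]; simp [Function.End.one_def]⟩) hI hJ
    (by rw [eI, eJ]; simp [mul_comm]) (mul_mem hI hU)
    (pow_not_scalar (T := -2 * n) (D := n ^ 2 * (n + 2)) (Or.inr (by rw [ey]; simpa using ac))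
      (by rw [ey]; simp; ring) (by rw [ey]; simp; linear_combination (-n ^ 2 - n) * e)
      (by simp [h2, hn]) (fun h => mul_ne_zero (pow_ne_zero 2 hn) h4 (by linear_combination -h))
      (fun h => mul_ne_zero h2 (pow_ne_zero 3 hn) (by linear_combination -h))
      (fun h => mul_ne_zero (pow_ne_zero 4 hn) h19 (by linear_combination h))) hJ
    (fun h => by
      have e1 : (J⁻¹).val = (-n)⁻¹ • J.val := Units.inv_eq_of_mul_eq_one_right (by
        rw [eJ]; simp [one_fin_two]; refine ⟨⟨?_, ?_⟩, ?_, ?_⟩ <;> field_simp <;>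
          first | ring1 | linear_combination -e)
      have e2 := congrArg Units.val h.eq
      rw [pow_two] at e2
      simp only [Units.val_mul (J * _), Units.val_mul (_ * _) (_ * _), Units.val_mul J, e1] at e2
      exact noncomm h2 hn e ey eJ e2)
  let h : GL (Fin 2) K := GeneralLinearGroup.mkOfDetNeZero
    !![(3 - 4 * c) / 5, 4 * a / 5; 4 * a / (5 * n), (3 + 4 * c) / 5] (by
      rw [det_fin_two_of]; convert one_ne_zero (α := K) using 1; field_simp; linear_combination -16 * e)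
  have eh : h.val = !![(3 - 4 * c) / 5, 4 * a / 5; 4 * a / (5 * n), (3 + 4 * c) / 5] := rfl
  obtain ⟨t, ht, et⟩ : h ∈ H := hS (mem_specialLinear.2 (by
    rw [eh, det_fin_two_of]; field_simp; linear_combination -16 * e))
  exact ⟨t, ht, qX_inj h2 hn e (h.mul_left_inj.1 (by rw [← et, eh, (h_aux h5 hn e).1])),
    qX_inj h2 hn e (h.mul_left_inj.1 (by rw [← et, eh, (h_aux h5 hn e).2]))⟩

end quat

variable {F : Type u} [Field F] {r : ℕ} [NeZero r] {ω : Fˣ}

/-- The vector `v₀ e₀ + v₁ e₁ + v₂ ∑_{i ≠ 0, 1} eᵢ`. -/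
def ev (r : ℕ) (v : Fin 3 → F) : ZMod r → F :=
  fun i => if i = 0 then v 0 else if i = 1 then v 1 else v 2

theorem sum_ev (h : (0 : ZMod r) ≠ 1) (v : Fin 3 → F) :
    ∑ i, ev r v i = v 0 + v 1 + ((r : F) - 2) * v 2 := by
  have : ∀ i, ev r v i = v 2 + ((if i = 0 then v 0 - v 2 else 0) + if i = 1 then v 1 - v 2 else 0) := by
    intro i
    unfold ev
    split_ifs with h0 h1 <;> simp_all
  simp only [this, Finset.sum_add_distrib, Finset.sum_ite_eq', Finset.mem_univ, if_true,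
    Finset.sum_const, Finset.card_univ, ZMod.card, nsmul_eq_mul]
  ring

theorem refl_mulVec (j : ZMod r) (x : ZMod r → F) :
    (sc _ (-1) * hm j (-1) : GL (ZMod r) F).val *ᵥ x = fun i => if i = j then x i else -x i := by
  ext i
  rw [← dg_const, hm, ← map_mul, dg_val, mulVec_diagonal]
  by_cases h : i = j <;> simp [h]

theorem conj_mulVec (h : orderOf ω = r) (x : ZMod r → F) :
    (Ph r ω * (sc _ (-1) * hm 0 (-1)) * (Ph r ω)⁻¹).val *ᵥ x =
      fun i => -x i + 2 * (∑ j, x j) / r := by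
  obtain ⟨y, rfl⟩ : ∃ y, x = (Ph r ω).val *ᵥ y := ⟨_, (gl_mulVec_inv _ x).symm⟩
  have e1 : ∑ j, ((Ph r ω).val *ᵥ y) j = r * y 0 := by
    simp only [mulVec, dotProduct, Ph_apply h]
    rw [Finset.sum_comm, Finset.sum_eq_single 0]
    · simp
    · intro j _ hj
      rw [← Finset.sum_mul]
      simp only [mul_comm _ j, sum_w h hj, zero_mul]
    · simp
  have e2 : (fun i => if i = 0 then y i else -y i) = -y + Pi.single 0 (2 * y 0) := by
    ext i; by_cases h : i = 0 <;> simp [h]; ring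
  rw [Units.val_mul, Units.val_mul, ← mulVec_mulVec, gl_inv_mulVec, ← mulVec_mulVec, refl_mulVec, e1,
    e2, mulVec_add, mulVec_neg]
  ext i
  have := cast_ne_zero h
  simp [Ph_apply h]; field_simp

theorem jobSGN : JobSGN.{u} := by
  intro dkb dks el F _ _ r _ ω G hf hb ho hs
  have hp : Fact (ringChar F).Prime := ⟨CharP.char_is_prime F _⟩
  let φ : ZMod (ringChar F) →+* F := ZMod.castHom (dvd_refl _) F
  have ne : ∀ {x : ZMod (ringChar F)}, φ x ≠ 0 → x ≠ 0 := fun h e => h (by rw [e, map_zero])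
  have h01 : (0 : ZMod r) ≠ 1 := by rcases hf.hr with rfl | rfl <;> decide
  have r0 := cast_ne_zero hf.ord
  have h25 : (25 : F) ≠ 0 := by convert mul_ne_zero ho.h5 ho.h5 using 1; norm_num
  have h24 : (24 : F) ≠ 0 := by
    convert mul_ne_zero (pow_ne_zero 3 ho.h2) ho.h3 using 1; norm_num
  have hr : ∀ j, sc _ (-1) * hm j (-1) ∈ G := fun j => mul_mem (hb.sc _) (hb.hm hs j)
  obtain ⟨t, ⟨g, hg, eg⟩, e0, e1⟩ := quat (K := ZMod (ringChar F)) dks (by simpa using hp.out)
    (n := (r : ZMod (ringChar F)) - 2) (ne (by simpa [map_ofNat] using ho.h2))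
    (ne (by simpa [map_ofNat] using ho.h5))
    (ne (by
      rw [map_sub, map_natCast, map_ofNat]
      rcases hf.hr with rfl | rfl
      · convert ho.h3 using 1; norm_num
      · convert ho.h5 using 1; norm_num))
    (ne (by simpa using r0))
    (ne (by
      rw [map_sub, map_sub, map_natCast, map_ofNat]
      rcases hf.hr with rfl | rfl
      · convert one_ne_zero (α := F) using 1; norm_num
      · convert ho.h3 using 1; norm_num))
    (ne (by
      simp only [map_sub, map_mul, map_pow, map_natCast, map_ofNat]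
      rcases hf.hr with rfl | rfl <;> convert neg_ne_zero.2 ho.h19 using 1 <;> norm_num))
    { carrier := {t | ∃ g ∈ G, ∀ v, g.val *ᵥ ev r (fun i => φ (v i)) = ev r fun i => φ (t v i)}
      one_mem' := ⟨1, one_mem _, fun v => by simp [Function.End.one_def]⟩
      mul_mem' := by
        rintro s t ⟨g, hg, e1⟩ ⟨k, hk, e2⟩
        exact ⟨g * k, mul_mem hg hk, fun v => by rw [Units.val_mul, ← mulVec_mulVec, e2, e1]; rfl⟩ }
    ⟨_, hr 0, fun v => by
      rw [refl_mulVec]; ext i; unfold ev; split_ifs <;> simp⟩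
    ⟨_, hr 1, fun v => by
      rw [refl_mulVec]; ext i; unfold ev; split_ifs <;> simp_all⟩
    ⟨_, mul_mem (mul_mem hb.ph (hr 0)) (inv_mem hb.ph), fun v => by
      rw [conj_mulVec hf.ord, sum_ev h01]; ext i; unfold ev; split_ifs <;> simp [map_ofNat]⟩
  let B : Matrix (ZMod r) (Fin 2) F := of fun i j => if i = ![0, 1] j then 1 else 0
  have hB : ∀ (u : GL (ZMod r) F) (A : Matrix (Fin 2) (Fin 2) F), u.val * B = B * A ↔
      (∀ i, u.val i 0 = ev r ![A 0 0, A 1 0, 0] i) ∧ ∀ i, u.val i 1 = ev r ![A 0 1, A 1 1, 0] i := by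
    intro u A
    rw [← Matrix.ext_iff, ← forall_and]
    refine forall_congr' fun i => ?_
    rw [Fin.forall_fin_two]
    simp only [B, mul_apply, of_apply, Fin.sum_univ_two, ev, mul_ite, mul_one, mul_zero,
      Finset.sum_ite_eq', Finset.mem_univ, if_true]
    by_cases h0 : i = 0 <;> by_cases h1 : i = 1 <;> simp_all
  let M : GL (Fin 2) F := GeneralLinearGroup.mkOfDetNeZero !![-7 / 25, -24 / 25; 24 / 25, -7 / 25] (by
    rw [det_fin_two_of]; convert one_ne_zero (α := F) using 1; field_simp; norm_num)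
  let δ : GL (Fin 2) F := GeneralLinearGroup.mkOfDetNeZero !![-1, 0; 0, (ω : F)] (by simp)
  have hM : M ∈ sec G B := ⟨g, hg, (hB g _).2 ⟨fun i => by
      have := congrFun (eg ![1, 0, 0]) i
      rw [e0, show ev r (fun i => φ (![1, 0, 0] i)) = Pi.single 0 1 by
        ext i; unfold ev; split_ifs <;> simp_all] at this
      simpa [ev, M, map_ofNat] using this, fun i => by
      have := congrFun (eg ![0, 1, 0]) i
      rw [e1, show ev r (fun i => φ (![0, 1, 0] i)) = Pi.single 1 1 by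
        ext i; unfold ev; split_ifs <;> simp_all] at this
      simpa [ev, M, map_ofNat] using this⟩⟩
  have hδ : δ ∈ sec G B := ⟨_, mul_mem hs hb.d, (hB _ _).2 ⟨fun i => by
      rw [hm, dp, ← map_mul, dg_val]
      by_cases h0 : i = 0 <;> simp [ev, δ, h0], fun i => by
      rw [hm, dp, ← map_mul, dg_val]
      by_cases h0 : i = 1 <;> simp [ev, δ, h0, h01.symm, w_one hf.ord]⟩⟩
  have wn : ∀ m, (ω : F) ^ m = 1 → r ∣ m := (prim hf.ord).dvd_of_pow_eq_one
  obtain ⟨c, c0, _, ⟨u, hu, eu⟩, eu'⟩ := dkb F _ (-1) ω δ M δ hf.nsq hδ rfl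
    (fun e => by
      have := wn 2 (by rw [← e]; ring)
      rcases hf.hr with rfl | rfl <;> omega) hM
    (by simp [M, h24, h25]) (by simp [M, h24, h25]) (.inl (by simp [M, ho.h7, h25])) hδ
    (fun m m1 m5 hm => by
      obtain ⟨s, hs⟩ := (mem_scalars_iff _).1 hm
      have : (δ ^ m).val = !![(-1) ^ m, 0; 0, (ω : F) ^ m] := by
        rw [Units.val_pow_eq_pow_val, show δ.val = diagonal ![-1, (ω : F)] by
          ext i j; fin_cases i <;> fin_cases j <;> simp [δ], diagonal_pow]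
        ext i j; fin_cases i <;> fin_cases j <;> simp
      rw [this] at hs
      have h1 := congrFun (congrFun hs 0) 0
      have h2 := congrFun (congrFun hs 1) 1
      simp at h1 h2
      have h3 := h1.trans h2.symm
      have h4 := wn (m * 2) (by rw [pow_mul, ← h3, ← pow_mul, mul_comm, pow_mul]; simp)
      obtain ⟨rfl, rfl⟩ : m = 5 ∧ r = 5 := by rcases hf.hr with rfl | rfl <;> omega
      rw [(prim hf.ord).pow_eq_one] at h3
      exact ho.h2 (by linear_combination -h3))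
  rw [eu', hB] at eu
  obtain ⟨ψ, ψ0, ψ1, hψ⟩ := row_of_fix (κ := 1) (i := 0) (ζ := -1) hu (by rwa [one_mul])
    (Commute.one_left _) (Commute.one_left _)
    (fun e => ho.h2 (by have := congrArg Units.val e; simp at this; linear_combination -this))
    (by ext i; by_cases h0 : i = 0 <;> simp [eu.1, ev, h0]) (v := Pi.single 1 1)
    (by simpa [eu.2, ev, h01] using c0)
  exact el F r ω G hf hb 0 ψ ψ0 ψ1 hψ

end H31.C6
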