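import Cfsg.Agent.H60.CovSpec
import Cfsg.Agent.H59.SU

/-! `PSU₃(3^a)` is covered by the conjugates of two proper subgroups. -/

set_option autoImplicit false
set_option linter.unusedSectionVars false

namespace H31.CU

open Cfsg H59 H60.Cov Module Polynomial

variable {F V : Type*} [Field F] [AddCommGroup V] [Module F V] {σ : F →+* F}
  {B : V →ₛₗ[σ] V →ₗ[F] F}

theorem adj_aeval (hs : IsHerm B) {g h : End F V} (e : ∀ x y, B (g x) y = B x (h y)) (p : F[X])
    (x y : V) : B (aeval g p x) y = B x (aeval h (p.map σ) y) := by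
  have k : ∀ (n : ℕ) x y, B ((g ^ n) x) y = B x ((h ^ n) y) := fun n => by
    induction n with
    | zero => simp
    | succ n ih => intro x y; rw [pow_succ, End.mul_apply, ih, e, pow_succ', End.mul_apply]
  induction p using Polynomial.induction_on' with
  | add p q hp hq => simp [hp, hq]
  | monomial n a =>
    simp [aeval_monomial, Algebra.algebraMap_eq_smul_one, k]

/-- Evaluation at an endomorphism killed by `f`. -/
noncomputable def ev {f : F[X]} {g : End F V} (h : aeval g f = 0) : AdjoinRoot f →+* End F V :=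
  Ideal.Quotient.lift (Ideal.span {f}) (aeval g : F[X] →ₐ[F] End F V).toRingHom fun a ha => by
    obtain ⟨b, rfl⟩ := Ideal.mem_span_singleton.1 ha
    simp [h]

theorem ev_mk {f : F[X]} {g : End F V} (h : aeval g f = 0) (p : F[X]) :
    ev h (AdjoinRoot.mk f p) = aeval g p := rfl

theorem ev_root {f : F[X]} {g : End F V} (h : aeval g f = 0) : ev h (AdjoinRoot.root f) = g :=
  (ev_mk h X).trans (aeval_X g)

theorem ev_alg {f : F[X]} {g : End F V} (h : aeval g f = 0) (a : F) :
    ev h (algebraMap F _ a) = algebraMap F _ a := (ev_mk h (C a)).trans (aeval_C g a)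

theorem indep3 {a b c : V} (h1 : B a a = 0) (h2 : B a b = 0) (h3 : B a c ≠ 0) (h4 : B b a = 0)
    (h5 : B b b ≠ 0) : LinearIndependent F ![a, b, c] := by
  have a0 : a ≠ 0 := fun e => h3 (by simp [e])
  refine Fintype.linearIndependent_iff.2 fun l hl => ?_
  simp only [Fin.sum_univ_three, Matrix.cons_val] at hl
  have e2 : l 2 = 0 := by simpa [h1, h2, h3] using congrArg (B a) hl
  have e1 : l 1 = 0 := by simpa [h4, h5, e2] using congrArg (B b) hl
  have e0 : l 0 = 0 := by simpa [e1, e2, a0] using hl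
  intro i
  fin_cases i
  exacts [e0, e1, e2]

/-- A self-adjoint root of `t ^ 3 - t - δ`. -/
def Rt (B : V →ₛₗ[σ] V →ₗ[F] F) (δ : F) (k : End F V) : Prop :=
  (∀ x y, B (k x) y = B x (k y)) ∧ ∀ x, k (k (k x)) = k x + δ • x

/-- The polynomial `X ^ 3 - X - δ`. -/
noncomputable def f0 (δ : F) : F[X] := X ^ 3 - X - C δ

theorem f0_deg (δ : F) : (f0 δ).natDegree = 3 := by unfold f0; compute_degree!

theorem f0_irr {δ : F} (h : ∀ c : F, c ^ 3 - c ≠ δ) : Irreducible (f0 δ) :=
  irreducible_of_degree_le_three_of_not_isRoot (by simp [f0_deg]) fun c hc =>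
    h c (by simpa [f0, sub_eq_zero] using hc)

theorem Rt.aeval {δ : F} {k : End F V} (h : Rt B δ k) : aeval k (f0 δ) = 0 := by
  ext x
  simp [f0, pow_succ, h.2, Algebra.algebraMap_eq_smul_one]

variable [Finite F] [FiniteDimensional F V] (hs : IsHerm B) (hV : finrank F V = 3) {δ : F}
  (hδ : σ δ = δ) (hδ' : ∀ c : F, c ^ 3 - c ≠ δ)
include hs hV

include hδ hδ' in
theorem exists_nf {k : End F V} (h : Rt B δ k) :
    ∃ x, B x x = 0 ∧ B x (k x) = 0 ∧ B x (k (k x)) = 1 := by
  have := Fact.mk (f0_irr hδ')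
  have hL : finrank F (AdjoinRoot (f0 δ)) = 3 :=
    finrank_quotient_span_eq_natDegree.trans (f0_deg δ)
  have : FiniteDimensional F (AdjoinRoot (f0 δ)) := .of_finrank_pos (by omega)
  have : Finite (AdjoinRoot (f0 δ)) := Module.finite_of_finite F
  obtain ⟨x, hx⟩ := finrank_pos_iff_exists_ne_zero.1 (show 0 < finrank F V by omega)
  let ψ := ev h.aeval
  have inj : ∀ a, ψ a x = 0 → a = 0 := fun a ha => by
    by_contra h0
    exact hx (by rw [← End.one_apply (R := F) x, ← map_one ψ, ← inv_mul_cancel₀ h0, map_mul,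
      End.mul_apply, ha, map_zero])
  let φ : AdjoinRoot (f0 δ) →ₗ[F] V :=
    { toFun := fun a => ψ a x
      map_add' := fun a b => by simp
      map_smul' := fun c a => by
        rw [Algebra.smul_def, map_mul, ev_alg]; simp [Algebra.algebraMap_eq_smul_one] }
  have sur : Function.Surjective φ :=
    (LinearMap.injective_iff_surjective_of_finrank_eq_finrank (hL.trans hV.symm)).1
      ((injective_iff_map_eq_zero φ).2 inj)
  have orth : ∀ d, B x d = 0 → B (k x) d = 0 → B (k (k x)) d = 0 → d = 0 := fun d h0 h1 h2 => by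
    have k3 : ∀ n : ℕ, B ((k ^ n) x) d = 0 ∧ B ((k ^ n) (k x)) d = 0 ∧
        B ((k ^ n) (k (k x))) d = 0 := fun n => by
      induction n with
      | zero => exact ⟨h0, h1, h2⟩
      | succ n ih =>
        simp only [pow_succ, End.mul_apply, h.2]
        exact ⟨ih.2.1, ih.2.2, by simp [ih.1, ih.2.1]⟩
    refine hs.nondeg' d fun y => ?_
    obtain ⟨a, rfl⟩ := sur y
    obtain ⟨p, rfl⟩ := AdjoinRoot.mk_surjective a
    show B (aeval k p x) d = 0
    induction p using Polynomial.induction_on' with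
    | add p q hp hq => simp [hp, hq]
    | monomial n a => simp [aeval_monomial, Algebra.algebraMap_eq_smul_one, (k3 n).1]
  obtain ⟨y, y0, y1, y2⟩ : ∃ y, B x y = 0 ∧ B (k x) y = 0 ∧ B (k (k x)) y = 1 := by
    have h1 := hs.finrank_add_finrank_perp (Submodule.span F {x, k x})
    have h2 : finrank F (Submodule.span F {x, k x}) ≤ 2 := by
      classical
      have := finrank_span_finset_le_card (R := F) ({x, k x} : Finset V)
      rw [Finset.coe_pair] at this
      exact this.trans Finset.card_le_two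
    obtain ⟨d, hd⟩ := finrank_pos_iff_exists_ne_zero.1
      (show 0 < finrank F (perp B (Submodule.span F {x, k x})) by omega)
    obtain ⟨d0, d1⟩ := mem_perp_pair.1 d.2
    have d2 : B (k (k x)) d ≠ 0 := fun e => hd (Subtype.ext (orth d d0 d1 e))
    exact ⟨(B (k (k x)) d)⁻¹ • (d : V), by simp [d0], by simp [d1], by simp [d2]⟩
  have fm : (f0 δ).map σ = f0 δ := by simp [f0, hδ]
  let bar := AdjoinRoot.map σ (f0 δ) (f0 δ) fm.symm.dvd
  have bm : ∀ p, bar (AdjoinRoot.mk _ p) = AdjoinRoot.mk _ (p.map σ) := fun p => by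
    rw [← AdjoinRoot.aeval_eq (p.map σ), aeval_def, eval₂_map]
    exact AdjoinRoot.lift_mk _ p
  have adj : ∀ a u v, B (ψ a u) v = B u (ψ (bar a) v) := fun a u v => by
    obtain ⟨p, rfl⟩ := AdjoinRoot.mk_surjective a
    rw [bm]
    exact adj_aeval hs h.1 p u v
  have cm : ∀ a u, k (ψ a u) = ψ a (k u) := fun a u => by
    rw [← End.mul_apply, ← End.mul_apply, ← ev_root h.aeval, ← map_mul, mul_comm, map_mul]
  obtain ⟨μ, rfl⟩ := sur y
  replace y0 : B x (ψ μ x) = 0 := y0
  replace y1 : B (k x) (ψ μ x) = 0 := y1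
  replace y2 : B (k (k x)) (ψ μ x) = 1 := y2
  have hμ : bar μ = μ := sub_eq_zero.1 (inj _ (orth _ (by
    rw [map_sub, LinearMap.sub_apply, map_sub, ← adj, ← hs.symm, y0]; simp) (by
    rw [map_sub, LinearMap.sub_apply, map_sub, ← adj, ← cm, h.1, ← hs.symm, y1]; simp) (by
    rw [map_sub, LinearMap.sub_apply, map_sub, ← adj, ← cm, ← cm, h.1, h.1, ← hs.symm, y2]; simp)))
  obtain ⟨ν, hν⟩ := exists_norm_eq' (σ := bar) (fun e => by
    obtain ⟨c, hc⟩ := exists_not_fixed hs.ne_id
    have := congrArg (· (AdjoinRoot.of (f0 δ) c)) e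
    simp only [bar, AdjoinRoot.map_of, RingHom.id_apply] at this
    exact hc ((AdjoinRoot.of (f0 δ)).injective this)) (fun a => by
      obtain ⟨p, rfl⟩ := AdjoinRoot.mk_surjective a
      rw [bm, bm, Polynomial.map_map, show σ.comp σ = RingHom.id F from RingHom.ext hs.invol,
        Polynomial.map_id]) hμ
  have e : ∀ u, B (ψ ν x) (ψ ν u) = B x (ψ μ u) := fun u => by
    rw [adj, ← End.mul_apply, ← map_mul, hν]
  exact ⟨ψ ν x, by rw [e, y0], by rw [cm, e, ← cm, ← h.1, y1],
    by rw [cm, cm, e, ← cm, ← cm, ← h.1, ← h.1, y2]⟩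

include hδ hδ' in
theorem conj_rt [CharP F 3] {k k' : End F V} (h : Rt B δ k) (h' : Rt B δ k') :
    ∃ g ∈ sisom B, ∀ v, g (k v) = k' (g v) := by
  have key : ∀ {k : End F V}, Rt B δ k → ∃ x, LinearIndependent F ![x, k x, k (k x)] ∧
      ∀ i j, B (![x, k x, k (k x)] i) (![x, k x, k (k x)] j) = !![0, 0, 1; 0, 1, 0; 1, 0, 1] i j :=
    fun {k} h => by
      obtain ⟨x, h0, h1, h2⟩ := exists_nf hs hV hδ hδ' h
      refine ⟨x, indep3 h0 h1 (by simp [h2]) (by rw [h.1, h1]) (by simp [h.1, h2]), fun i j => ?_⟩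
      fin_cases i <;> fin_cases j <;> simp [h.1, h.2, h0, h1, h2]
  obtain ⟨x, i1, g1⟩ := key h
  obtain ⟨x', i2, g2⟩ := key h'
  obtain ⟨g, hg, e⟩ := hs.witt_family i1 i2 fun i j => (g1 i j).trans (g2 i j).symm
  have e0 : g x = x' := e 0
  have e1 : g (k x) = k' x' := e 1
  have e2 : g (k (k x)) = k' (k' x') := e 2
  have e3 : (g : End F V) * k = k' * g :=
    (basisOfLinearIndependentOfCardEqFinrank i1 (by simp [hV])).ext fun i => by
      fin_cases i <;> simp [e0, e1, e2, h.2, h'.2]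
  have : Fact (Nat.Prime 3) := ⟨Nat.prime_three⟩
  obtain ⟨s, hs3⟩ := surjective_frobenius F 3 ((LinearEquiv.det g : Fˣ) : F)⁻¹
  rw [frobenius_def] at hs3
  have s0 : s ≠ 0 := fun e => inv_ne_zero (Units.ne_zero _) (by rw [← hs3, e]; simp)
  have n1 : σ s * s = 1 := frobenius_inj F 3 (by
    rw [frobenius_def, mul_pow, ← map_pow, hs3, map_inv₀, ← mul_inv, hs.det_norm_one hg]; simp)
  refine ⟨scalarEquiv V (Units.mk0 s s0) * g, ⟨mul_mem (scalarEquiv_mem_isom n1) hg,
    MonoidHom.mem_ker.2 (Units.ext ?_)⟩, fun v => ?_⟩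
  · rw [map_mul, Units.val_mul, det_of_scalar (scalarEquiv_apply _), hV,
      Units.val_mk0, hs3, inv_mul_cancel₀ (Units.ne_zero _), Units.val_one]
  · simp [scalarEquiv_apply, show g (k v) = k' (g v) from congrArg (· v) e3]

include hδ hδ' in
theorem rt_of_irred [CharP F 3] {g : V ≃ₗ[F] V} (hg : g ∈ isom B)
    (h : ∀ (c : F) v, g v = c • v → v = 0) : ∃ k, Rt B δ k ∧ ∀ v, g (k v) = k (g v) := by
  have : Nontrivial V := finrank_pos_iff.1 (show 0 < finrank F V by omega)
  have hd : (g : End F V).charpoly.natDegree = 3 := by rw [LinearMap.charpoly_natDegree, hV]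
  have := Fact.mk (irreducible_of_degree_le_three_of_not_isRoot (p := (g : End F V).charpoly)
    (by simp [hd]) fun c hc => by
      obtain ⟨v, hv⟩ := ((End.hasEigenvalue_iff_isRoot_charpoly _ c).2 hc).exists_hasEigenvector
      exact hv.2 (h c v hv.apply_eq_smul))
  have := Fact.mk (f0_irr hδ')
  have hL : finrank F (AdjoinRoot (g : End F V).charpoly) = 3 :=
    finrank_quotient_span_eq_natDegree.trans hd
  have : FiniteDimensional F (AdjoinRoot (g : End F V).charpoly) := .of_finrank_pos (by omega)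
  have : Finite (AdjoinRoot (g : End F V).charpoly) := Module.finite_of_finite F
  have : CharP (AdjoinRoot (g : End F V).charpoly) 3 := charP_of_injective_algebraMap' F 3
  obtain ⟨φ⟩ := FiniteField.nonempty_algHom_of_finrank_dvd (F := F) (K := AdjoinRoot (f0 δ))
    (L := AdjoinRoot (g : End F V).charpoly) (by
      rw [hL]; exact (finrank_quotient_span_eq_natDegree.trans (f0_deg δ)).dvd)
  let ψ := ev (LinearMap.aeval_self_charpoly (g : End F V))
  obtain ⟨p, hp⟩ := AdjoinRoot.mk_surjective (φ (AdjoinRoot.root _))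
  have r0 : aeval (AdjoinRoot.mk (g : End F V).charpoly p) (f0 δ) = 0 := by
    rw [hp, aeval_algHom_apply, AdjoinRoot.aeval_eq, AdjoinRoot.mk_self, map_zero]
  have ra : ∀ (a : AdjoinRoot (g : End F V).charpoly) (s : F[X]), ψ (aeval a s) = aeval (ψ a) s :=
    fun a s => by
      induction s using Polynomial.induction_on' with
      | add p q hp hq => simp only [map_add, hp, hq]
      | monomial n c => rw [aeval_monomial, aeval_monomial, map_mul, map_pow, ev_alg]
  have gi : ψ (AdjoinRoot.root _)⁻¹ = (g.symm : End F V) := by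
    have r1 : AdjoinRoot.root (g : End F V).charpoly ≠ 0 := fun e => by
      obtain ⟨v, hv⟩ := exists_ne (0 : V)
      have := ev_root (LinearMap.aeval_self_charpoly (g : End F V))
      rw [e, map_zero] at this
      exact hv (h 0 v (by simpa using congrArg (· v) this.symm))
    ext v
    have := congrArg (fun a => ψ a (g.symm v)) (inv_mul_cancel₀ r1)
    simpa [ψ, ev_root] using this
  obtain ⟨ρ', hρ⟩ : ∃ ρ', ρ' = aeval (AdjoinRoot.root (g : End F V).charpoly)⁻¹ (p.map σ) := ⟨_, rfl⟩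
  generalize hρ0 : AdjoinRoot.mk (g : End F V).charpoly p = ρ at r0
  have adj : ∀ u v, B (ψ ρ u) v = B u (ψ ρ' v) := fun u v => by
    rw [hρ, ra, gi, ← hρ0]
    exact adj_aeval hs (fun x y => by simpa using hg x (g.symm y)) p u v
  have r2 : aeval ρ' (f0 δ) = 0 := ψ.injective (by
    rw [ra, map_zero]
    ext v
    refine hs.nondeg' _ fun u => ?_
    rw [show f0 δ = (f0 δ).map σ by simp [f0, hδ], ← adj_aeval hs adj, ← ra, r0]
    simp)
  have h3 : (3 : AdjoinRoot (g : End F V).charpoly) = 0 := CharP.cast_eq_zero _ 3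
  simp only [f0, map_sub, map_pow, aeval_X, aeval_C] at r0 r2
  obtain ⟨c, hc, e⟩ : ∃ c : F, σ c = c ∧ ρ' = ρ + algebraMap F _ c := by
    have : (ρ' - ρ) * (ρ' - ρ - 1) * (ρ' - ρ + 1) = 0 := by
      linear_combination r2 - r0 + (ρ * ρ * ρ' - ρ * ρ' * ρ') * h3
    rcases mul_eq_zero.1 this with e | e
    · rcases mul_eq_zero.1 e with e | e
      · exact ⟨0, map_zero _, by rw [map_zero]; linear_combination e⟩
      · exact ⟨1, map_one _, by rw [map_one]; linear_combination e⟩
    · exact ⟨-1, by simp, by rw [map_neg, map_one]; linear_combination e⟩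
  have adj' : ∀ u v, B (ψ ρ u) v = B u (ψ ρ v) + c * B u v := fun u v => by
    rw [adj, e, map_add, ev_alg]; simp [Algebra.algebraMap_eq_smul_one, ψ]
  have c0 : c = 0 := by
    obtain ⟨u, hu⟩ := hs.exists_self_ne_zero_top (by omega)
    have h1 := adj' u u
    have h2 := congrArg σ h1
    rw [map_add, map_mul, hs.symm, hs.symm, hs.symm, hc] at h2
    have h4 : (3 : F) = 0 := CharP.cast_eq_zero _ 3
    exact (mul_eq_zero.1 (show c * B u u = 0 by
      linear_combination h1 + h2 + c * B u u * h4)).resolve_right hu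
  refine ⟨ψ ρ, ⟨fun u v => by rw [adj', c0]; simp, fun v => ?_⟩, fun v => ?_⟩
  · have := congrArg (fun a => ψ a v) (show ρ * (ρ * ρ) = ρ + algebraMap F _ δ by
      linear_combination r0)
    simp only [map_add, map_mul, ψ, ev_alg] at this
    simpa [Algebra.algebraMap_eq_smul_one] using this
  · have := congrArg (fun a => ψ a v) (mul_comm (AdjoinRoot.root _) ρ)
    simpa [ψ, ev_root] using this

include hδ in
theorem rt_of_basis [CharP F 3] {g : V ≃ₗ[F] V} {a b c : V} {γ l : F} (h0 : γ ≠ 0)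
    (cc : B c c = 0) (cb : B c b = 0) (ca : B c a = γ) (bc : B b c = 0) (bb : B b b = -γ)
    (ba : B b a = 0) (ac : B a c = γ) (ab : B a b = 0) (aa : B a a = 0)
    (ga : g a = l • (a + b - c)) (gb : g b = l • (b + c)) (gc : g c = l • c) :
    ∃ k, Rt B δ k ∧ ∀ v, g (k v) = k (g v) + (1 : F) • g v := by
  have h3 : (3 : F) = 0 := CharP.cast_eq_zero _ 3
  let β := basisOfLinearIndependentOfCardEqFinrank
    (indep3 cc cb (ca ▸ h0) bc (bb ▸ neg_ne_zero.2 h0)) (by simp [hV])
  have β0 : β 0 = c := by simp [β]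
  have β1 : β 1 = b := by simp [β]
  have β2 : β 2 = a := by simp [β]
  let k : End F V := β.constr F ![b, -a - c, b - δ • c]
  have kc : k c = b := by rw [← β0, Basis.constr_basis]; rfl
  have kb : k b = -a - c := by rw [← β1, Basis.constr_basis]; rfl
  have ka : k a = b - δ • c := by rw [← β2, Basis.constr_basis]; rfl
  have e1 : B.comp k = B.compl₂ k := β.ext fun i => β.ext fun j => by
    fin_cases i <;> fin_cases j <;>
      simp [β0, β1, β2, ka, kb, kc, cc, cb, ca, bc, bb, ba, ac, ab, aa, hδ]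
  have e2 : k * (k * k) = k + δ • (1 : End F V) := β.ext fun i => by
    fin_cases i <;> simp [β0, β1, β2, ka, kb, kc] <;> match_scalars <;> grind
  have e3 : (g : End F V) * k = k * g + g := β.ext fun i => by
    fin_cases i <;> simp [β0, β1, β2, ka, kb, kc, ga, gb, gc] <;> match_scalars <;> grind
  exact ⟨k, ⟨fun x y => congrArg (· x y) e1, fun x => congrArg (· x) e2⟩,
    fun v => by rw [one_smul]; exact congrArg (· v) e3⟩

include hδ hδ' in
theorem cases [CharP F 3] {g : V ≃ₗ[F] V} (hg : g ∈ isom B) :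
    (∃ (c : F) (v : V), B v v ≠ 0 ∧ g v = c • v) ∨
      ∃ (k : End F V) (e : F), Rt B δ k ∧ ∀ v, g (k v) = k (g v) + e • g v := by
  by_cases h : ∀ (c : F) v, g v = c • v → v = 0
  · obtain ⟨k, h1, h2⟩ := rt_of_irred hs hV hδ hδ' hg h
    exact Or.inr ⟨k, 0, h1, by simpa using h2⟩
  push Not at h
  obtain ⟨l, u, gu, u0⟩ := h
  rw [or_iff_not_imp_left]
  intro hn
  push Not at hn
  have h3 : (3 : F) = 0 := CharP.cast_eq_zero _ 3
  have uu : B u u = 0 := by_contra fun h => hn l u h gu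
  obtain ⟨f, uf, ff⟩ := hs.exists_partner uu u0
  obtain ⟨w, hw, ww⟩ := hs.exists_self_ne_zero_perp (hs.disjoint_span_hyp uu (uf ▸ one_ne_zero))
    (by rw [hs.finrank_span_hyp uu (uf ▸ one_ne_zero)]; omega)
  obtain ⟨uw, fw⟩ := mem_perp_pair.1 hw
  have wu := hs.eq_zero_comm.1 uw
  have wf := hs.eq_zero_comm.1 fw
  have fu : B f u = 1 := by rw [← hs.symm, uf, map_one]
  have sw := hs.self_fixed w
  generalize hβ : B w w = β at ww sw
  have dec : ∀ v, ∃ a b c : F, v = a • u + b • w + c • f := fun v => by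
    let β := basisOfLinearIndependentOfCardEqFinrank
      (indep3 uu uw (uf ▸ one_ne_zero) wu (hβ ▸ ww)) (by simp [hV])
    exact ⟨β.repr v 0, β.repr v 1, β.repr v 2, by
      conv_lhs => rw [← β.sum_repr v]
      simp [β, Fin.sum_univ_three]⟩
  have l0 : l ≠ 0 := fun e => u0 (by simpa [e] using gu)
  obtain ⟨c, m, z, gw⟩ := dec (g w)
  obtain ⟨a, b, n, gf⟩ := dec (g f)
  obtain rfl : z = 0 := by simpa [gu, gw, uu, uw, uf, l0] using hg u w
  rw [zero_smul, add_zero] at gw
  obtain rfl : m = l := by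
    by_contra hm
    refine hn m (w + (c / (m - l)) • u) (by simpa [uu, uw, wu, hβ] using ww) ?_
    have := sub_ne_zero.2 hm
    rw [map_add, map_smul, gu, gw]
    match_scalars <;> field_simp <;> ring
  have c0 : c ≠ 0 := fun e => hn m w (hβ ▸ ww) (by simpa [e] using gw)
  have mm : σ m * m = 1 := by
    have := hg w w
    simp only [gw, map_add, LinearMap.add_apply, form_smul_left, form_smul_right, uu, uw, wu,
      hβ] at this
    exact mul_right_cancel₀ ww (by linear_combination this)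
  obtain rfl : n = m := by
    have := hg u f
    simp only [gu, gf, map_add, form_smul_left, form_smul_right, uu, uw, uf] at this
    linear_combination m * this - (n - 0) * mm
  have r1 : σ c * n + σ n * b * β = 0 := by
    have := hg w f
    simp only [gw, gf, map_add, LinearMap.add_apply, form_smul_left, form_smul_right, uu, uw, wu,
      uf, wf, hβ] at this
    linear_combination this
  have r2 : σ a * n + σ b * b * β + σ n * a = 0 := by
    have := hg f f
    simp only [gf, map_add, LinearMap.add_apply, form_smul_left, form_smul_right, uu, uw, wu,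
      uf, wf, fu, fw, ff, hβ] at this
    linear_combination this
  have r3 := congrArg σ r1
  simp only [map_add, map_mul, hs.invol, sw, map_zero] at r3
  obtain ⟨a, rfl⟩ : ∃ a', a = n * a' := ⟨a / n, by field_simp⟩
  obtain ⟨b, rfl⟩ : ∃ a', b = n * a' := ⟨b / n, by field_simp⟩
  obtain ⟨c, rfl⟩ : ∃ a', c = n * a' := ⟨c / n, by field_simp⟩
  simp only [map_mul] at r1 r2 r3
  replace c0 := right_ne_zero_of_mul c0
  have q1 : σ c = -(b * β) := by linear_combination r1 - (σ c + b * β) * mm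
  have q2 : σ a = -a - σ b * b * β := by
    linear_combination r2 - (σ a + σ b * b * β + a) * mm
  have q3 : c = -(σ b * β) := by linear_combination r3 - (c + σ b * β) * mm
  have b0 : b ≠ 0 := fun e => c0 (by rw [q3, e]; simp)
  obtain ⟨s, hs1⟩ : ∃ s, s * c = a + b * c := ⟨(a + b * c) / c, by field_simp⟩
  have hs2 := congrArg σ hs1
  simp only [map_mul, map_add, q1, q2] at hs2
  obtain ⟨k, h1, h2⟩ := rt_of_basis hs hV hδ (g := g) (a := f + s • w + (σ s * s * β) • u)
    (b := b • w - (a + b * c) • u) (c := (b * c) • u) (γ := b * c) (l := n) (mul_ne_zero b0 c0)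
    (by simp [uu]) (by simp [uu, uw]) (by simp [uu, uw, uf, q1]; grind) (by simp [uu, wu])
    (by simp [uu, uw, wu, hβ]; grind) (by simp [uu, uw, wu, hβ, uf, wf, q1, q2]; grind)
    (by simp [uu, wu, fu]) (by simp [uu, uw, wu, hβ, fu, fw]; grind)
    (by simp [uu, uw, wu, hβ, fu, fw, uf, wf, ff, hs.invol, sw]; grind)
    (by simp only [map_add, map_smul, gu, gw, gf]; match_scalars <;> grind)
    (by simp only [map_sub, map_smul, gu, gw]; match_scalars <;> grind)
    (by simp only [map_smul, gu]; match_scalars; grind)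
  exact ⟨k, 1, h1, h2⟩

theorem to_line {p v : V} (hp : B p p ≠ 0) (hv : B v v ≠ 0) :
    ∃ x ∈ sisom B, ∃ c : F, x v = c • p := by
  obtain ⟨a, ha⟩ := hs.exists_smul_norm_eq hv (hs.self_fixed p)
  have a0 : a ≠ 0 := fun e => hp (by rw [← ha, e]; simp)
  obtain ⟨g, hg, e⟩ := hs.witt_one (u := a • v) (w := p) (fun e => hp (by rw [← ha, e]; simp))
    (fun e => hp (by simp [e])) ha
  obtain ⟨t, ht, d, e'⟩ := hs.exists_qrefl hp (l := ((LinearEquiv.det g : Fˣ) : F)⁻¹) (by
    rw [map_inv₀, ← mul_inv, hs.det_norm_one hg, inv_one])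
  refine ⟨t * g, ⟨mul_mem ht.1 hg, MonoidHom.mem_ker.2 (Units.ext ?_)⟩,
    a⁻¹ * ((LinearEquiv.det g : Fˣ) : F)⁻¹, ?_⟩
  · rw [map_mul, Units.val_mul, d, inv_mul_cancel₀ (Units.ne_zero _), Units.val_one]
  · rw [LinearEquiv.mul_apply, mul_smul, ← e', ← map_smul, ← e, ← map_smul, inv_smul_smul₀ a0]

omit hs hV in
/-- The stabiliser of a line. -/
def lineSt (B : V →ₛₗ[σ] V →ₗ[F] F) (p : V) : Subgroup (sisom B) where
  carrier := {x | ∃ c : F, x.1 p = c • p}
  one_mem' := ⟨1, by simp⟩
  mul_mem' := by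
    rintro x y ⟨c, hc⟩ ⟨d, hd⟩
    exact ⟨d * c, by simp [hc, hd, mul_smul]⟩
  inv_mem' := by
    rintro x ⟨c, hc⟩
    by_cases c0 : c = 0
    · exact ⟨0, by simpa [c0] using hc⟩
    · refine ⟨c⁻¹, x.1.injective ?_⟩
      rw [map_smul, hc, inv_smul_smul₀ c0]
      exact x.1.apply_symm_apply p

omit hs hV in
/-- The normaliser of the cubic field. -/
def fieldSt (B : V →ₛₗ[σ] V →ₗ[F] F) (k : End F V) : Subgroup (sisom B) where
  carrier := {x | ∃ e : F, ∀ v, x.1 (k v) = k (x.1 v) + e • x.1 v}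
  one_mem' := ⟨0, by simp⟩
  mul_mem' := by
    rintro x y ⟨c, hc⟩ ⟨d, hd⟩
    exact ⟨c + d, fun v => by simp [hc, hd, add_smul, add_assoc]⟩
  inv_mem' := by
    rintro x ⟨c, hc⟩
    refine ⟨-c, fun v => x.1.injective ?_⟩
    have e : ∀ v, x.1 ((x⁻¹).1 v) = v := x.1.apply_symm_apply
    rw [map_add, map_smul, hc, e, e]
    simp

theorem exists_delta [CharP F 3] : ∃ δ : F, σ δ = δ ∧ ∀ c : F, c ^ 3 - c ≠ δ := by
  have h3 : (3 : F) = 0 := CharP.cast_eq_zero _ 3
  by_contra! h
  have sur : Function.Surjective fun c : {c : F // σ c = c} =>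
      (⟨c ^ 3 - c, by simp [c.2]⟩ : {c : F // σ c = c}) := fun d => by
    obtain ⟨c, hc⟩ := h d d.2
    have h1 := congrArg σ hc
    rw [map_sub, map_pow, d.2, ← hc] at h1
    have h2 : (σ c - c) * (σ c - c - 1) * (σ c - c + 1) = 0 := by
      linear_combination h1 + (c * c * σ c - c * σ c * σ c) * h3
    have h4 : σ c = c := by
      rcases mul_eq_zero.1 h2 with e | e
      · rcases mul_eq_zero.1 e with e | e
        · exact sub_eq_zero.1 e
        · have := congrArg σ e
          rw [map_sub, map_sub, hs.invol, map_one, map_zero] at this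
          exact absurd (show (1 : F) = 0 by linear_combination e + this + h3) one_ne_zero
      · have := congrArg σ e
        rw [map_add, map_sub, hs.invol, map_one, map_zero] at this
        exact absurd (show (1 : F) = 0 by linear_combination h3 - e - this) one_ne_zero
    exact ⟨⟨c, h4⟩, Subtype.ext hc⟩
  have := Finite.injective_iff_surjective.2 sur (a₁ := ⟨0, map_zero _⟩) (a₂ := ⟨1, map_one _⟩)
    (Subtype.ext (by simp))
  exact zero_ne_one (congrArg Subtype.val this)

theorem cov [CharP F 3] : Cov2 (sisom B ⧸ Subgroup.center (sisom B)) := by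
  obtain ⟨δ, hδ, hδ'⟩ := exists_delta hs hV
  obtain ⟨p, hp⟩ := hs.exists_self_ne_zero_top (by omega)
  have hH : lineSt B p ≠ ⊤ := fun e => by
    obtain ⟨v, hv, vv⟩ := hs.exists_self_ne_zero_perp (hs.disjoint_span_singleton hp) (by
      rw [finrank_span_singleton fun e => hp (by simp [e])]; omega)
    obtain ⟨x, hx, c, hc⟩ := to_line hs hV hp vv
    obtain ⟨d, hd⟩ : (⟨x, hx⟩ : sisom B) ∈ lineSt B p := e ▸ Subgroup.mem_top _
    have h1 := hx.1 p v
    have h2 := hx.1 p p
    have h3 := hx.1 v v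
    rw [show x p = d • p from hd] at h1 h2
    rw [hc] at h1 h3
    simp [mem_perp_singleton.1 hv, hp] at h1
    rcases h1 with rfl | rfl
    · exact vv (by simpa using h3.symm)
    · exact hp (by simpa using h2.symm)
  have zH : Subgroup.center (sisom B) ≤ lineSt B p := fun x hx => by
    obtain ⟨a, ha⟩ := (hs.mem_center_sisom_iff (by omega) x).1 hx
    exact ⟨a, ha p⟩
  have cH : ∀ (g : sisom B) (c : F) (v : V), B v v ≠ 0 → g.1 v = c • v →
      ∃ x, x * g * x⁻¹ ∈ lineSt B p := fun g c v hv e => by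
    obtain ⟨x, hx, d, hd⟩ := to_line hs hV hv hp
    refine ⟨(⟨x, hx⟩ : sisom B)⁻¹, c, x.injective ?_⟩
    rw [inv_inv, map_smul, hd]
    exact (x.apply_symm_apply _).trans (show g.1 (x p) = _ by rw [hd, map_smul, e, smul_comm])
  by_cases hk : ∃ k, Rt B δ k
  swap
  · refine cov2_quot _ _ hH hH zH zH fun g => ?_
    rcases cases hs hV hδ hδ' g.2.1 with ⟨c, v, hv, e⟩ | ⟨k, -, h, -⟩
    · exact (cH g c v hv e).imp fun _ => Or.inl
    · exact absurd ⟨k, h⟩ hk
  obtain ⟨k₀, h₀⟩ := hk
  refine cov2_quot _ (fieldSt B k₀) hH (fun e => ?_) zH (fun x hx => ?_) fun g => ?_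
  · obtain ⟨v, -, v0, vv⟩ := hs.exists_isotropic_mem (W := ⊤) (by simp; omega)
    obtain ⟨c, c0, hc⟩ := exists_trace_zero_ne_zero hs.ne_id hs.invol
    obtain ⟨t, ht, tx⟩ := hs.exists_transv vv hc
    obtain ⟨d, hd⟩ : (⟨t, axisGrp_le_sisom vv ht⟩ : sisom B) ∈ fieldSt B k₀ :=
      e ▸ Subgroup.mem_top _
    obtain ⟨f, vf, -⟩ := hs.exists_partner vv v0
    have h1 := hs.finrank_add_finrank_perp (Submodule.span F {v, k₀ v})
    have h2 : finrank F (Submodule.span F {v, k₀ v}) ≤ 2 := by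
      classical
      have := finrank_span_finset_le_card (R := F) ({v, k₀ v} : Finset V)
      rw [Finset.coe_pair] at this
      exact this.trans Finset.card_le_two
    obtain ⟨y, hy⟩ := finrank_pos_iff_exists_ne_zero.1
      (show 0 < finrank F (perp B (Submodule.span F {v, k₀ v})) by omega)
    obtain ⟨y0, y1⟩ := mem_perp_pair.1 y.2
    obtain rfl : d = 0 := by simpa [tx, y0, ← h₀.1, y1, hy] using hd y
    have h3 : k₀ v = B v (k₀ f) • v := smul_right_injective V c0 (by
      simpa [tx, vf, mul_smul, eq_comm] using hd f)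
    generalize B v (k₀ f) = l at h3
    have h4 := h₀.2 v
    simp only [h3, map_smul, smul_smul, ← add_smul] at h4
    exact hδ' l (by linear_combination smul_left_injective F v0 h4)
  · obtain ⟨a, ha⟩ := (hs.mem_center_sisom_iff (by omega) x).1 hx
    exact ⟨0, fun v => by simp [ha]⟩
  · rcases cases hs hV hδ hδ' g.2.1 with ⟨c, v, hv, e⟩ | ⟨k, d, h, e⟩
    · exact (cH g c v hv e).imp fun _ => Or.inl
    · obtain ⟨x, hx, e'⟩ := conj_rt hs hV hδ hδ' h h₀
      refine ⟨⟨x, hx⟩, Or.inr ⟨d, fun v => ?_⟩⟩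
      obtain ⟨v, rfl⟩ := x.surjective v
      have e1 : ∀ v, ((⟨x, hx⟩ : sisom B) * g * (⟨x, hx⟩ : sisom B)⁻¹).1 (x v) = x (g.1 v) :=
        fun v => congrArg (fun y => x (g.1 y)) (x.symm_apply_apply v)
      rw [← e', e1, e1, e, map_add, map_smul, e']

omit hs hV in
theorem cov2_congr {G H : Type*} [Group G] [Group H] (e : G ≃* H) (h : Cov2 H) : Cov2 G := by
  obtain ⟨A, B, hA, hB, h⟩ := h
  have k : ∀ A : Subgroup H, A ≠ ⊤ → A.comap e.toMonoidHom ≠ ⊤ := fun A hA h1 =>
    hA (eq_top_iff.2 fun y _ => by simpa using h1.ge (Subgroup.mem_top (e.symm y)))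
  refine ⟨_, _, k A hA, k B hB, fun g => ?_⟩
  obtain ⟨x, hx⟩ := h (e g)
  exact ⟨e.symm x, by simpa using hx⟩

omit hs hV in
theorem jobU3 : JobU3 := by
  intro F _ _ q a hF ha hq
  obtain ⟨p, k, hp, hc, hk, e⟩ := exists_char_pow hF
  obtain rfl : p = 3 := (Nat.prime_dvd_prime_iff_eq hp Nat.prime_three).1
    (hp.dvd_of_dvd_pow (hq ▸ e ▸ dvd_pow_self p hk.ne'))
  exact cov2_congr (psuEquiv hF 3) (cov (isHerm_uForm hF 3) (by simp))

end H31.CU
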