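import Cfsg.Agent.H63.KgvTop
import Cfsg.Agent.H31.KgvMain
import Cfsg.Agent.H10.KgvI2
import Cfsg.Agent.H12.KgvTM
import Cfsg.Agent.H15.KgvH1
import Cfsg.Agent.H17.KgvEg
import Cfsg.Agent.H18.KgvLF
import Cfsg.Agent.H20.KgvSQ
import Cfsg.Agent.H73.KgvTI
import Cfsg.Agent.H23.KgvBR
import Cfsg.Agent.H25.KgvSb
import Cfsg.Agent.H27.KgvVR
import Cfsg.Agent.H28.KgvOr
import Cfsg.Agent.H30.KgvPW2
import Cfsg.Agent.H86.KgvPB
import Cfsg.Agent.H33.KgvBI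
import Cfsg.Agent.H37.KgvPW1
import Cfsg.Agent.H38.KgvH6
import Cfsg.Agent.H39.KgvH3
import Cfsg.Agent.H43.KgvSF
import Cfsg.Agent.H44.KgvPd
import Cfsg.Agent.H45.KgvNL
import Cfsg.Agent.H46.KgvH4
import Cfsg.Agent.H81.KgvHD
import Cfsg.Agent.H52.KgvAN
import Cfsg.Agent.H53.KgvBl
import Cfsg.Agent.H56.KgvSM
import Cfsg.Agent.H64.KgvPA
import Cfsg.Agent.H77.KgvGL
import Cfsg.Agent.H67.KgvI0
import Cfsg.Agent.H69.KgvMN
import Cfsg.Agent.H70.KgvSg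
import Cfsg.Agent.H9.KgvSa
import Cfsg.Agent.H72.KgvH2
import Cfsg.Agent.H82.KgvCN
import Cfsg.Agent.H83.KgvAR
import Cfsg.Agent.H87.KgvGc
import Cfsg.Agent.H90.KgvI1
import Cfsg.Agent.H93.KgvNW1
import Cfsg.Agent.H93.KgvNW2
import Cfsg.Agent.H99.KgvJH5
import Cfsg.Agent.H60.KgvVL

/-! # Tower KGV: assembly of all slots -/

set_option autoImplicit false

namespace H31.Kgv

open H63.Kgv

universe u

theorem hs_all : HsSt :=
  hs_of H93.KgvNW.job1 H93.KgvNW.job2 H37.KgvPW1.job H30.KgvPW2.job H52.KgvAN.job H83.KgvAR.job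
    H81.KgvHD.job H64.KgvPA.job H86.KgvPB.job H23.KgvBR.job H18.Kgv.job H15.KgvH1.job H72.KgvH2.job
    H39.KgvH3.job H46.KgvH4.job H99.KgvJH5.job H38.KgvH6.job

theorem main_of_vl (vl : JVL.{u}) : Main.{u} :=
  main_of hs_all H87.KgvGc.job H44.KgvPd.job H82.KgvCN.job H12.KgvTM.job H73.KgvTI.job H17.KgvEg.job
    H70.KgvSg.job H9.KgvSa.job H25.KgvSb.job H43.KgvSF.job H20.KgvSQ.job vl H77.KgvGL.job
    H90.KgvI1.job H56.KgvSM.job H10.KgvI2.job H67.KgvI0.job H28.KgvOr.job H45.KgvNL.job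
    H27.KgvVR.job H33.KgvBI.job H53.KgvBl.job H69.KgvMN.job

theorem gamSt_of_vl (vl : JVL.{u}) : GamSt.{u} := gamSt_of_main (main_of_vl vl)

theorem kgvSt_of_vl (vl : JVL.{u}) : KgvSt.{u} := kgvSt_of_main (main_of_vl vl)

theorem main : Main.{u} := main_of_vl H60.KgvVL.job

theorem gamSt : GamSt.{u} := gamSt_of_main main

theorem kgvSt : KgvSt.{u} := kgvSt_of_main main

end H31.Kgv
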